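import Cfsg.Agent.Lib.PF.S3
import Cfsg.Agent.Lib.PF.Irr

/-! Bridge between `IsCyclicTIFamily` and the relative form `H9.Fam`. -/

set_option autoImplicit false
open scoped Classical ComplexConjugate BigOperators
noncomputable section
namespace H9
open Cfsg H51
variable {G : Type*} [Group G] {W₁ W₂ : Subgroup G}

theorem res₁_eq_one_iff {ω : Dual (W₁ ⊔ W₂)} :
    res₁ W₁ W₂ ω = 1 ↔ ∀ w : ↥(W₁ ⊔ W₂), (w : G) ∈ W₁ → ω w = 1 :=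
  ⟨fun h w hw => DFunLike.congr_fun h ⟨w, hw⟩, fun h => MonoidHom.ext fun x => h _ x.2⟩

theorem res₂_eq_one_iff {ω : Dual (W₁ ⊔ W₂)} :
    res₂ W₁ W₂ ω = 1 ↔ ∀ w : ↥(W₁ ⊔ W₂), (w : G) ∈ W₂ → ω w = 1 :=
  ⟨fun h w hw => DFunLike.congr_fun h ⟨w, hw⟩, fun h => MonoidHom.ext fun x => h _ x.2⟩

theorem res₁_mul (ω ω' : Dual (W₁ ⊔ W₂)) :
    res₁ W₁ W₂ (ω * ω') = res₁ W₁ W₂ ω * res₁ W₁ W₂ ω' := rfl

theorem res₂_mul (ω ω' : Dual (W₁ ⊔ W₂)) :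
    res₂ W₁ W₂ (ω * ω') = res₂ W₁ W₂ ω * res₂ W₁ W₂ ω' := rfl

theorem res₁_inv (ω : Dual (W₁ ⊔ W₂)) : res₁ W₁ W₂ ω⁻¹ = (res₁ W₁ W₂ ω)⁻¹ := rfl

theorem res₂_inv (ω : Dual (W₁ ⊔ W₂)) : res₂ W₁ W₂ ω⁻¹ = (res₂ W₁ W₂ ω)⁻¹ := rfl

theorem dual_mul_one {W : Subgroup G} (i : Dual W) : i * 1 = i := MonoidHom.ext fun _ => mul_one _

theorem dual_one_mul {W : Subgroup G} (i : Dual W) : 1 * i = i := MonoidHom.ext fun _ => one_mul _

theorem dual_mul_inv_eq_one {W : Subgroup G} {i j : Dual W} : i * j⁻¹ = 1 ↔ i = j := by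
  simp only [MonoidHom.ext_iff, MonoidHom.mul_apply, MonoidHom.inv_apply, MonoidHom.one_apply,
    mul_inv_eq_one]

theorem res₁_one : res₁ W₁ W₂ 1 = 1 := rfl

theorem res₂_one : res₂ W₁ W₂ 1 = 1 := rfl

variable [Fintype G]

theorem DP.eq_iff_res (h : DP W₁ W₂) {ω ω' : Dual (W₁ ⊔ W₂)} :
    ω = ω' ↔ res₁ W₁ W₂ ω = res₁ W₁ W₂ ω' ∧ res₂ W₁ W₂ ω = res₂ W₁ W₂ ω' := by
  rw [← h.join_inj, h.join_res, h.join_res]

theorem DP.eq_join (h : DP W₁ W₂) {ω : Dual (W₁ ⊔ W₂)} {i : Dual W₁} {j : Dual W₂}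
    (h1 : res₁ W₁ W₂ ω = i) (h2 : res₂ W₁ W₂ ω = j) : ω = h.join i j := by
  rw [← h1, ← h2, h.join_res]

theorem DP.join_mul (h : DP W₁ W₂) (i i' : Dual W₁) (j j' : Dual W₂) :
    h.join i j * h.join i' j' = h.join (i * i') (j * j') :=
  h.eq_join (by rw [res₁_mul, h.res₁_join, h.res₁_join]) (by rw [res₂_mul, h.res₂_join, h.res₂_join])

theorem DP.join_one (h : DP W₁ W₂) : h.join 1 1 = 1 := (h.eq_join res₁_one res₂_one).symm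

theorem DP.indFun_alp (h : DP W₁ W₂) (i : Dual W₁) (j : Dual W₂) :
    indFun (W₁ ⊔ W₂) (fun w => 1 - (h.join i 1 w : ℂ) - (h.join 1 j w : ℂ) +
      (h.join i 1 w : ℂ) * (h.join 1 j w : ℂ)) = ind (W₁ ⊔ W₂) ⊤ (alp W₁ W₂ i j) := by
  rw [ind_top]
  congr 1
  funext w
  have e := congrFun (h.omg_mul i 1 1 j) w
  rw [dual_mul_one, dual_one_mul, Pi.mul_apply] at e
  simp only [alp, h.join_apply, Pi.add_apply, Pi.sub_apply, e, h.omg_one_one, one_of_mem w.2]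

theorem dirr_top {φ : G → ℂ} : dirr ⊤ φ ↔ IsIrrCharacter G φ ∨ IsIrrCharacter G (-φ) := by
  rw [dirr, mem_irr_top, mem_irr_top]

theorem fam_of_family (h : DP W₁ W₂) {χ : Dual (W₁ ⊔ W₂) → G → ℂ}
    (hχ : IsCyclicTIFamily W₁ W₂ χ) : Fam ⊤ W₁ W₂ fun i j => χ (h.join i j) where
  dirr i j := dirr_top.2 (hχ.irr_or_neg _)
  orth i i' j j' := by
    rw [dot_top, hχ.orthonormal]
    simp only [h.join_inj]
  one := by rw [h.join_one, hχ.map_one, one_top]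
  ind i j := by
    by_cases hi : i = 1
    · rw [hi, h.join_one, hχ.map_one, one_top]; simp
    by_cases hj : j = 1
    · rw [hj, h.join_one, hχ.map_one, one_top]; simp
    have := hχ.induced_eq (h.join i 1) (h.join 1 j)
      (fun e => hi (h.join_inj.1 (e.trans h.join_one.symm)).1)
      (fun e => hj (h.join_inj.1 (e.trans h.join_one.symm)).2)
      (res₂_eq_one_iff.1 (h.res₂_join _ _)) (res₁_eq_one_iff.1 (h.res₁_join _ _))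
    rw [h.indFun_alp, h.join_mul, dual_mul_one, dual_one_mul] at this
    rw [one_top]
    exact this

theorem family_of_fam (h : CTI ⊤ W₁ W₂) {χ : Dual W₁ → Dual W₂ → G → ℂ} (f : Fam ⊤ W₁ W₂ χ) :
    IsCyclicTIFamily W₁ W₂ fun ω => χ (res₁ W₁ W₂ ω) (res₂ W₁ W₂ ω) where
  irr_or_neg ω := dirr_top.1 (f.dirr _ _)
  orthonormal ω ω' := by
    rw [← dot_top, f.orth]
    simp only [← h.dp.eq_iff_res]
  map_one := by rw [res₁_one, res₂_one, f.one, one_top]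
  eq_on ω w h1 h2 := by
    rw [f.eq_on h _ _ (pf_mem_vset.2 ⟨w.2, h1, h2⟩), h.dp.omg_res, lin_coe]
  induced_eq φ ψ _ _ h1 h2 := by
    have e1 := res₂_eq_one_iff.2 h1
    have e2 := res₁_eq_one_iff.2 h2
    have := h.dp.indFun_alp (res₁ W₁ W₂ φ) (res₂ W₁ W₂ ψ)
    rw [← h.dp.eq_join rfl e1, ← h.dp.eq_join e2 rfl] at this
    rw [this, alp, f.ind, res₁_mul, res₂_mul, e1, e2, dual_mul_one, dual_one_mul, one_top]
    rfl

theorem eq_eta_of_family (hW : IsSelfNormalizingCyclic W₁ W₂) (hodd : Odd (Nat.card ↥(W₁ ⊔ W₂)))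
    {χ : Dual (W₁ ⊔ W₂) → G → ℂ} (hχ : IsCyclicTIFamily W₁ W₂ χ) (ω : Dual (W₁ ⊔ W₂)) :
    χ ω = eta ⊤ W₁ W₂ (res₁ W₁ W₂ ω) (res₂ W₁ W₂ ω) := by
  have h := CyclicTI.of_isSelfNormalizingCyclic hW hodd
  refine eq_eta_of_eq_on h (dirr_top.2 (hχ.irr_or_neg ω)) _ _ fun x hx => ?_
  obtain ⟨h1, h2, h3⟩ := pf_mem_vset.1 hx
  rw [(cyclicTI_dp h).omg_res, lin_of_mem _ h1]
  exact hχ.eq_on ω ⟨x, h1⟩ h2 h3

end H9
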