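import Mathlib
import Cfsg.Prelude.Def_OddOrderLocal

set_option autoImplicit false

/-! Group-theoretic consequences of Peterfalvi's Hypothesis (4.2). -/

namespace H52

/-- Peterfalvi's Hypothesis (4.2) without the oddness clause: `L = K ⋊ W₁`, `W₁ ≠ 1` a cyclic Hall
subgroup, `W₂ ≠ 1` cyclic and equal to `C_K(x)` for all `x ∈ W₁#`. -/
structure PrimeTI {L : Type*} [Group L] (K W₁ W₂ : Subgroup L) : Prop where
  normal : K.Normal
  inf_eq : K ⊓ W₁ = ⊥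
  sup_eq : K ⊔ W₁ = ⊤
  W₁_ne : W₁ ≠ ⊥
  W₁_cyclic : IsCyclic W₁
  hall : Nat.Coprime (Nat.card W₁) W₁.index
  W₂_ne : W₂ ≠ ⊥
  W₂_cyclic : IsCyclic W₂
  W₂_le : W₂ ≤ K
  cent : ∀ x ∈ W₁, x ≠ 1 → K ⊓ Subgroup.centralizer ({x} : Set L) = W₂

namespace PrimeTI

variable {L : Type*} [Group L] {K W₁ W₂ : Subgroup L}

theorem exists_mul (h : PrimeTI K W₁ W₂) (g : L) : ∃ k ∈ K, ∃ w ∈ W₁, k * w = g := by
  have := h.normal
  have hg : g ∈ K ⊔ W₁ := h.sup_eq ▸ Subgroup.mem_top g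
  exact Subgroup.mem_sup_of_normal_left.1 hg

theorem eq_one (h : PrimeTI K W₁ W₂) {x : L} (hK : x ∈ K) (hW : x ∈ W₁) : x = 1 := by
  have : x ∈ K ⊓ W₁ := ⟨hK, hW⟩
  rwa [h.inf_eq, Subgroup.mem_bot] at this

theorem isComplement' (h : PrimeTI K W₁ W₂) : Subgroup.IsComplement' K W₁ := by
  have := h.normal
  refine Subgroup.isComplement'_of_disjoint_and_mul_eq_univ (disjoint_iff.2 h.inf_eq) ?_
  rw [← Subgroup.normal_mul, h.sup_eq]; rfl

theorem index_W₁ (h : PrimeTI K W₁ W₂) : W₁.index = Nat.card K := h.isComplement'.index_eq_card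

theorem index_K (h : PrimeTI K W₁ W₂) : K.index = Nat.card W₁ :=
  h.isComplement'.symm.index_eq_card

theorem coprime_K (h : PrimeTI K W₁ W₂) : Nat.Coprime (Nat.card W₁) (Nat.card K) :=
  h.index_W₁ ▸ h.hall

theorem coprime_W (h : PrimeTI K W₁ W₂) : Nat.Coprime (Nat.card W₁) (Nat.card W₂) :=
  Nat.Coprime.coprime_dvd_right (Subgroup.card_dvd_of_le h.W₂_le) h.coprime_K

theorem inf_W (h : PrimeTI K W₁ W₂) : W₁ ⊓ W₂ = ⊥ := by
  rw [eq_bot_iff]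
  rintro x ⟨h1, h2⟩
  exact h.eq_one (h.W₂_le h2) h1

theorem comm (h : PrimeTI K W₁ W₂) (a : L) (ha : a ∈ W₁) (b : L) (hb : b ∈ W₂) :
    a * b = b * a := by
  by_cases h1 : a = 1
  · simp [h1]
  · rw [← h.cent a ha h1] at hb
    exact (Subgroup.mem_centralizer_singleton_iff.1 hb.2).symm

theorem comm₁ (h : PrimeTI K W₁ W₂) (a : L) (ha : a ∈ W₁) (b : L) (hb : b ∈ W₁) :
    a * b = b * a := by
  have := h.W₁_cyclic
  have := mul_comm' (⟨a, ha⟩ : W₁) ⟨b, hb⟩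
  exact congrArg Subtype.val this

theorem comm₂ (h : PrimeTI K W₁ W₂) (a : L) (ha : a ∈ W₂) (b : L) (hb : b ∈ W₂) :
    a * b = b * a := by
  have := h.W₂_cyclic
  have := mul_comm' (⟨a, ha⟩ : W₂) ⟨b, hb⟩
  exact congrArg Subtype.val this

theorem mem_sup_iff (h : PrimeTI K W₁ W₂) {x : L} :
    x ∈ W₁ ⊔ W₂ ↔ ∃ a ∈ W₁, ∃ b ∈ W₂, a * b = x := by
  have hle : W₁ ≤ Subgroup.normalizer (W₂ : Set L) := by
    rw [Subgroup.le_normalizer_iff]
    intro a ha b hb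
    rw [h.comm a ha b hb]; simpa using hb
  rw [← SetLike.mem_coe, Subgroup.coe_mul_of_left_le_normalizer_right _ _ hle]
  exact Iff.rfl

theorem comm_sup (h : PrimeTI K W₁ W₂) (x : L) (hx : x ∈ W₁ ⊔ W₂) (y : L) (hy : y ∈ W₁ ⊔ W₂) :
    x * y = y * x := by
  obtain ⟨a, ha, b, hb, rfl⟩ := h.mem_sup_iff.1 hx
  obtain ⟨c, hc, d, hd, rfl⟩ := h.mem_sup_iff.1 hy
  have h1 : Commute a c := h.comm₁ a ha c hc
  have h2 : Commute a d := h.comm a ha d hd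
  have h3 : Commute b c := (h.comm c hc b hb).symm
  have h4 : Commute b d := h.comm₂ b hb d hd
  exact ((h1.mul_right h2).mul_left (h3.mul_right h4)).eq

theorem K_inf_sup (h : PrimeTI K W₁ W₂) {x : L} (hx : x ∈ W₁ ⊔ W₂) : x ∈ K ↔ x ∈ W₂ := by
  refine ⟨fun hK => ?_, fun h2 => h.W₂_le h2⟩
  obtain ⟨a, ha, b, hb, rfl⟩ := h.mem_sup_iff.1 hx
  have : a ∈ K := by
    have := K.mul_mem hK (K.inv_mem (h.W₂_le hb))
    simpa using this
  rw [h.eq_one this ha]; simpa using hb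

theorem isCyclic_sup [Finite L] (h : PrimeTI K W₁ W₂) : IsCyclic ↥(W₁ ⊔ W₂) := by
  obtain ⟨a, ha⟩ := (Subgroup.isCyclic_iff_exists_zpowers_eq_top W₁).1 h.W₁_cyclic
  obtain ⟨b, hb⟩ := (Subgroup.isCyclic_iff_exists_zpowers_eq_top W₂).1 h.W₂_cyclic
  rw [Subgroup.isCyclic_iff_exists_zpowers_eq_top]
  have haW : a ∈ W₁ := ha ▸ Subgroup.mem_zpowers a
  have hbW : b ∈ W₂ := hb ▸ Subgroup.mem_zpowers b
  have hab : Commute a b := h.comm a haW b hbW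
  have hoa : orderOf a = Nat.card W₁ := by rw [← ha, Nat.card_zpowers]
  have hob : orderOf b = Nat.card W₂ := by rw [← hb, Nat.card_zpowers]
  have hco : Nat.Coprime (orderOf a) (orderOf b) := by rw [hoa, hob]; exact h.coprime_W
  refine ⟨a * b, le_antisymm ?_ (sup_le ?_ ?_)⟩
  · rw [Subgroup.zpowers_le]
    exact Subgroup.mul_mem_sup haW hbW
  · rw [← ha, Subgroup.zpowers_le]
    obtain ⟨m, hm⟩ := exists_pow_eq_self_of_coprime hco.symm
    have : ((a * b) ^ orderOf b) ^ m = a := by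
      rw [hab.mul_pow, pow_orderOf_eq_one, mul_one, hm]
    have h2 := Subgroup.pow_mem _ (Subgroup.pow_mem _ (Subgroup.mem_zpowers (a * b)) (orderOf b)) m
    rwa [this] at h2
  · rw [← hb, Subgroup.zpowers_le]
    obtain ⟨m, hm⟩ := exists_pow_eq_self_of_coprime hco
    have : ((a * b) ^ orderOf a) ^ m = b := by
      rw [hab.mul_pow, pow_orderOf_eq_one, one_mul, hm]
    have h2 := Subgroup.pow_mem _ (Subgroup.pow_mem _ (Subgroup.mem_zpowers (a * b)) (orderOf a)) m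
    rwa [this] at h2

/-- `W \ W₂` is a TI-subset of `L` with normaliser `W = W₁W₂` (strong form). -/
theorem ti [Finite L] (h : PrimeTI K W₁ W₂) (g x : L) (hx : x ∈ W₁ ⊔ W₂) (hx2 : x ∉ W₂)
    (hg : g * x * g⁻¹ ∈ W₁ ⊔ W₂) : g ∈ W₁ ⊔ W₂ := by
  have hKn := h.normal
  obtain ⟨k, hk, w, hw, rfl⟩ := h.exists_mul g
  have hwx : w * x * w⁻¹ = x := by
    rw [h.comm_sup w (Subgroup.mem_sup_left hw) x hx]; simp
  have hkx : k * x * k⁻¹ ∈ W₁ ⊔ W₂ := by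
    have : k * w * x * (k * w)⁻¹ = k * (w * x * w⁻¹) * k⁻¹ := by group
    rwa [this, hwx] at hg
  obtain ⟨a, ha, b, hb, rfl⟩ := h.mem_sup_iff.1 hx
  obtain ⟨c, hc, d, hd, hcd⟩ := h.mem_sup_iff.1 hkx
  set n := Nat.card W₂ with hn
  have hab : Commute a b := h.comm a ha b hb
  have hcd' : Commute c d := h.comm c hc d hd
  have hbn : b ^ n = 1 := orderOf_dvd_iff_pow_eq_one.1 (Subgroup.orderOf_dvd_natCard W₂ hb)
  have hdn : d ^ n = 1 := orderOf_dvd_iff_pow_eq_one.1 (Subgroup.orderOf_dvd_natCard W₂ hd)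
  have h1 : k * a ^ n * k⁻¹ = c ^ n := by
    have e1 : (c * d) ^ n = c ^ n := by rw [hcd'.mul_pow, hdn, mul_one]
    have e2 : (a * b) ^ n = a ^ n := by rw [hab.mul_pow, hbn, mul_one]
    rw [← e1, ← e2, hcd, conj_pow]
  have han : a ^ n ≠ 1 := by
    intro h0
    have h2 : orderOf a ∣ n := orderOf_dvd_iff_pow_eq_one.2 h0
    have h3 : orderOf a ∣ Nat.card W₁ := Subgroup.orderOf_dvd_natCard W₁ ha
    have := Nat.dvd_gcd h3 h2
    rw [h.coprime_W, Nat.dvd_one, orderOf_eq_one_iff] at this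
    apply hx2
    rw [this]; simpa using hb
  have h2 : k * a ^ n * k⁻¹ * (a ^ n)⁻¹ = 1 := by
    apply h.eq_one
    · have : k * a ^ n * k⁻¹ * (a ^ n)⁻¹ = k * (a ^ n * k⁻¹ * (a ^ n)⁻¹) := by group
      rw [this]
      exact K.mul_mem hk (hKn.conj_mem _ (K.inv_mem hk) _)
    · rw [h1]
      exact W₁.mul_mem (W₁.pow_mem hc n) (W₁.inv_mem (W₁.pow_mem ha n))
  have h3 : k ∈ W₂ := by
    rw [← h.cent (a ^ n) (W₁.pow_mem ha n) han]
    refine ⟨hk, Subgroup.mem_centralizer_singleton_iff.2 ?_⟩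
    calc k * a ^ n = (k * a ^ n * k⁻¹ * (a ^ n)⁻¹) * (a ^ n * k) := by group
      _ = a ^ n * k := by rw [h2, one_mul]
  exact Subgroup.mul_mem _ (Subgroup.mem_sup_right h3) (Subgroup.mem_sup_left hw)

theorem card_sup [Finite L] (h : PrimeTI K W₁ W₂) :
    Nat.card ↥(W₁ ⊔ W₂) = Nat.card W₁ * Nat.card W₂ := by
  rw [← Nat.card_prod]
  symm
  refine Nat.card_congr (Equiv.ofBijective
    (fun p : W₁ × W₂ => (⟨p.1 * p.2, Subgroup.mul_mem_sup p.1.2 p.2.2⟩ : ↥(W₁ ⊔ W₂))) ⟨?_, ?_⟩)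
  · rintro ⟨⟨a, ha⟩, ⟨b, hb⟩⟩ ⟨⟨c, hc⟩, ⟨d, hd⟩⟩ he
    have he' : a * b = c * d := congrArg Subtype.val he
    have h1 : c⁻¹ * a = d * b⁻¹ := by
      calc c⁻¹ * a = c⁻¹ * (a * b) * b⁻¹ := by group
        _ = d * b⁻¹ := by rw [he']; group
    have h2 : c⁻¹ * a = 1 := by
      apply h.eq_one
      · rw [h1]; exact h.W₂_le (W₂.mul_mem hd (W₂.inv_mem hb))
      · exact W₁.mul_mem (W₁.inv_mem hc) ha
    have h3 : a = c := by rw [inv_mul_eq_one] at h2; exact h2.symm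
    subst h3
    have h4 : b = d := mul_left_cancel he'
    subst h4
    rfl
  · rintro ⟨x, hx⟩
    obtain ⟨a, ha, b, hb, rfl⟩ := h.mem_sup_iff.1 hx
    exact ⟨(⟨a, ha⟩, ⟨b, hb⟩), rfl⟩

theorem isSelfNormalizingCyclic [Finite L] (h : PrimeTI K W₁ W₂) :
    Cfsg.IsSelfNormalizingCyclic W₁ W₂ := by
  refine ⟨h.W₁_ne, h.W₂_ne, h.inf_W, h.comm, h.isCyclic_sup, ?_⟩
  rintro X hX ⟨x, hx⟩
  apply le_antisymm
  · intro g hg
    have h1 := hX hx
    have h2 := hX ((Subgroup.mem_set_normalizer_iff.1 hg x).1 hx)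
    exact h.ti g x h1.1 (fun h3 => h1.2 (Or.inr h3)) h2.1
  · rw [Subgroup.le_set_normalizer_iff]
    intro g hg y hy
    rw [h.comm_sup g hg y (hX hy).1]
    simpa using hy

end PrimeTI

end H52
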