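import Cfsg.Agent.Lib.PF.H53_Bridge
import Cfsg.Agent.Lib.PF.H9_Bridge
import Cfsg.Agent.Lib.PF.PrimeTIGroup
import Cfsg.Agent.Lib.PF.S4_5
import Cfsg.Agent.Lib.PF.S5_3
import Cfsg.Agent.Lib.PF.S5_6
import Cfsg.Agent.Lib.PF.S5_9

/-! Bridges from the statements on Peterfalvi's sections 4 and 5 to the library. -/

set_option autoImplicit false
open scoped Classical ComplexConjugate BigOperators
noncomputable section

namespace H52
open H51 Cfsg

theorem primeTI_top {L : Type*} [Group L] [Fintype L] {K W₁ W₂ : Subgroup L} (hK : K.Normal)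
    (hKW₁ : K ⊓ W₁ = ⊥) (hKW₁' : K ⊔ W₁ = ⊤) (hW₁ : W₁ ≠ ⊥) (hW₁c : IsCyclic W₁)
    (hHall : Nat.Coprime (Nat.card W₁) W₁.index) (hW₂ : W₂ ≠ ⊥) (hW₂c : IsCyclic W₂) (hW₂K : W₂ ≤ K)
    (hC : ∀ x ∈ W₁, x ≠ 1 → K ⊓ Subgroup.centralizer ({x} : Set L) = W₂)
    (hodd : Odd (Nat.card ↥(W₁ ⊔ W₂))) : H51.PrimeTI ⊤ K W₁ W₂ := by
  have h := H52.PrimeTI.mk hK hKW₁ hKW₁' hW₁ hW₁c hHall hW₂ hW₂c hW₂K hC
  refine ⟨normalIn_top.2 hK, ⟨le_top, le_top, hKW₁, fun m _ => ?_⟩, hW₁, hW₁c, h.coprime_K, hW₂,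
    hW₂c, hW₂K, hC, hodd⟩
  obtain ⟨k, hk, w, hw, e⟩ := h.exists_mul m
  exact ⟨k, hk, w, hw, e.symm⟩

variable {X : Type*} [Group X] [Fintype X] {Y : Type*} [Group Y] [Fintype Y]

theorem finite_of_system {S : Set (X → ℂ)} {τ : (X → ℂ) → (Y → ℂ)} {R : (X → ℂ) → Finset (Y → ℂ)}
    (h : IsCoherenceSystem S τ R) : S.Finite := by
  have hli : LinearIndependent ℂ (fun χ : S => (χ : X → ℂ)) := by
    rw [linearIndependent_iff']
    intro s g hg i hi
    have h1 := congrArg (fun φ => dot ⊤ φ (i : X → ℂ)) hg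
    simp only [dot_sum_left, dot_smul_left, dot_zero_left] at h1
    rw [Finset.sum_eq_single i (fun j _ hj => by
      rw [dot_top, h.orthogonal _ j.2 _ i.2 (fun e => hj (Subtype.ext e)), mul_zero])
      (fun hn => absurd hi hn)] at h1
    refine (mul_eq_zero.1 h1).resolve_right fun h0 => h.conj_ne _ i.2 ?_
    have : (i : X → ℂ) = 0 := (dot_self_eq_zero ⊤).1 h0
    rw [this]; funext x; simp [conjFun]
  exact hli.setFinite

theorem conj_fixed_iff {L : Type*} [Group L] [Fintype L] {K : Subgroup L} (hK : K.Normal) (θ : K → ℂ)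
    (x : L) : (fun k : K => θ ⟨x * k * x⁻¹, hK.conj_mem (k : L) k.2 x⟩) = θ ↔
      conjg x (extendByZero K θ) = extendByZero K θ := by
  have e : ∀ (y : L) (hy : y ∈ K), extendByZero K θ y = θ ⟨y, hy⟩ := fun y hy =>
    congrFun (coe_extendByZero K θ) ⟨y, hy⟩
  constructor
  · intro h
    funext y
    by_cases hy : y ∈ K
    · show extendByZero K θ (x * y * x⁻¹) = _
      rw [e _ (hK.conj_mem y hy x), e y hy]
      exact congrFun h ⟨y, hy⟩
    · show extendByZero K θ (x * y * x⁻¹) = _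
      rw [extendByZero_supp K θ y hy, extendByZero_supp K θ _ fun h' => hy ?_]
      simpa [mul_assoc] using hK.conj_mem _ h' x⁻¹
  · intro h
    funext k
    rw [← e, ← e k k.2]
    exact congrFun h k

end H52
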