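import Cfsg.Agent.Lib.BG.S3a
import Cfsg.Agent.Lib.BG.S3b
import Cfsg.Agent.Lib.BG.S1a
import Cfsg.Agent.Lib.BG.Api.Frob

/-! Two facts on fixed-point-free actions. -/

set_option autoImplicit false
namespace H9
open Cfsg H69 H45 H45.BG
variable {G : Type*} [Group G] [Finite G] {K R M H E : Subgroup G}

/-- If `K R` is a Frobenius group (or `K = 1`) acting coprimely on the solvable group `M` with
`C_M(R) = 1`, then `K` centralises `M`. -/
theorem le_cent_of_reg (hn : R ≤ 𝐍(K)) (hR : R ≠ ⊥) (h : Semiregular K R) (hKM : K ≤ 𝐍(M))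
    (hRM : R ≤ 𝐍(M)) (hcK : (Nat.card M).Coprime (Nat.card K))
    (hcR : (Nat.card M).Coprime (Nat.card R)) (hsol : Group.IsSolvable M) (hC : M ⊓ 𝐂(R) = ⊥) :
    K ≤ 𝐂(M) := by
  by_cases hK : K = ⊥
  · rw [hK]; exact bot_le
  have hF := frobenius_of_semiregular hn hK hR h
  refine (Frobenius_Wielandt_fixpoint hF (sup_le hKM hRM) ?_ hsol).2.1 hC
  rw [hF.sdprod.card]
  exact Nat.Coprime.mul_right hcK hcR

/-- A subgroup of prime order of a Frobenius complement of odd order is normal. -/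
theorem le_norm_of_prime_of_reg (hodd : Odd (Nat.card E)) (hH : H ≠ ⊥) (hn : E ≤ 𝐍(H))
    (h : Semiregular H E) (hsol : Group.IsSolvable H) (hR : R ≤ E) (hp : (Nat.card R).Prime) :
    E ≤ 𝐍(R) := by
  obtain ⟨hcyc, -, hall⟩ := odd_regular_metacyclic hodd hH hn h
  by_cases hle : R ≤ ⁅E, E⁆
  · exact (charIn_of_cyclic hcyc hle).norm_trans (der_normalIn E).norm
  have hco : (Nat.card ↥⁅E, E⁆).Coprime (Nat.card R) := by
    rw [Nat.coprime_comm, hp.coprime_iff_not_dvd]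
    intro hd
    refine hle (hall.hall.le_of_normal_hall (der_normalIn E) hR ?_)
    rw [isPi_of_prime_card hp]
    exact mem_primesOf.2 ⟨hp, hd⟩
  have hRD : R ≤ 𝐍(⁅E, E⁆) := hR.trans (der_normalIn E).norm
  have hd := coprime_abelian_cent_dprod hRD hco (cyclic_abelian hcyc)
  have hD1 : ⁅⁅E, E⁆, R⁆ ⊓ 𝐂(R) = ⊥ := by
    rw [eq_bot_iff, ← hd.inf_eq]
    exact le_inf inf_le_left (le_inf (inf_le_left.trans hd.le_left) inf_le_right)
  have hDE : ⁅⁅E, E⁆, R⁆ ≤ E := hd.le_left.trans (der_le E)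
  have hcoE := regular_norm_coprime hn h
  have hc := le_cent_of_reg (M := H)
    (le_normalizer_commutator hRD Subgroup.le_normalizer) (ne_bot_of_prime_card hp)
    (semiregular_of_prime_card hp hD1) (hDE.trans hn) (hR.trans hn) (coprimegS hcoE hDE)
    (coprimegS hcoE hR) hsol (h.cent hR (ne_bot_of_prime_card hp))
  have hb : ⁅⁅E, E⁆, R⁆ = ⊥ := h.eq_bot_of_cent hDE (by
    rw [inf_eq_left.2 (centsC.1 hc)]; exact hH)
  have hdp : DProd ⁅E, E⁆ R (⁅E, E⁆ ⊔ R) :=
    dprod_of_cent (centsC.1 (Subgroup.commutator_eq_bot_iff_le_centralizer.1 hb)) (coprime_TIg hco)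
  refine (charIn_of_normalIn_of_coprime hdp.normalIn_right ?_).norm_trans
    (normalIn_of_der_le le_sup_left (sup_le (der_le E) hR)).norm
  rw [hdp.sdprod.relIndex_right]
  exact hco.symm

end H9
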