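import Cfsg.Agent.Base
import Cfsg.Agent.Lib.PF.Defs10
import Cfsg.Agent.Lib.PF.S10a

/-! Peterfalvi (10.5), the parts that do not assume coherence of `S`; (10.9). Owner: helper32. -/

set_option autoImplicit false
open scoped Classical ComplexConjugate BigOperators
noncomputable section
namespace H51
open Cfsg
variable {G : Type*} [Group G] [Fintype G] {M W₁ U W₂ : Subgroup G} {ζ : G → ℂ} {d n : ℕ} {δ : ℤ}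

/-- Coq `supp_FTtype345_bridge`. -/
theorem Hyp345.bridge_mem_CFon (h : Hyp345 M W₁ U W₂ ζ d n δ) (i : Dual W₁) {j : Dual W₂} (hj : j ≠ 1) :
    bridge345 M W₁ W₂ ζ n δ i j ∈ CFon M (typeA0 M) := h.d10.bridge_on i hj

/-- `α_ij` vanishes at `1`. -/
theorem Hyp345.bridge_one (h : Hyp345 M W₁ U W₂ ζ d n δ) (i : Dual W₁) {j : Dual W₂} (hj : j ≠ 1) :
    bridge345 M W₁ W₂ ζ n δ i j 1 = 0 := h.d10.bridge_one i hj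

/-- Coq `vchar_FTtype345_bridge`. -/
theorem Hyp345.bridge_mem_vchar (h : Hyp345 M W₁ U W₂ ζ d n δ) (i : Dual W₁) (j : Dual W₂) :
    bridge345 M W₁ W₂ ζ n δ i j ∈ vchar M := h.d10.bridge_vchar i j

/-- Coq `vchar_Dade_FTtype345_bridge`. -/
theorem Hyp345.tau_bridge_mem_vchar (h : Hyp345 M W₁ U W₂ ζ d n δ) (i : Dual W₁) {j : Dual W₂}
    (hj : j ≠ 1) : tauM M (bridge345 M W₁ W₂ ζ n δ i j) ∈ vchar (⊤ : Subgroup G) :=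
  h.d10.tau_bridge_vchar i hj

/-- Coq `norm_FTtype345_bridge`. -/
theorem Hyp345.nrm_tau_bridge (h : Hyp345 M W₁ U W₂ ζ d n δ) (i : Dual W₁) {j : Dual W₂}
    (hj : j ≠ 1) : nrm ⊤ (tauM M (bridge345 M W₁ W₂ ζ n δ i j)) = 2 + (n : ℝ) ^ 2 :=
  h.d10.nrm_tau_bridge i hj

/-- The `μ_ij` are orthogonal to the irreducible members of `S` (Coq `o_mu2_irr`). -/
theorem dot_mu_irr_seqInd (h : MaxP M W₁ U W₂) {ξ : G → ℂ} (h1 : ξ ∈ irr M)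
    (h2 : ξ ∈ seqInd ⁅M, M⁆ M ⁅M, M⁆ ⊥) (i : Dual W₁) (j : Dual W₂) :
    dot M (mu M W₁ W₂ i j) ξ = 0 := H32.dot_mu_irr_seqInd' h.primeTI h1 h2 i j

/-- Coq `FTtype345_bridge_coherence`. -/
theorem Hyp345.bridge_coherence (h : Hyp345 M W₁ U W₂ ζ d n δ) {S₁ : Finset (G → ℂ)}
    {τ₁ : (G → ℂ) →ₗ[ℂ] (G → ℂ)} (hc : CoherentWith M ⊤ S₁ (tauM M) τ₁)
    (hsub : S₁ ⊆ seqInd ⁅M, M⁆ M ⁅M, M⁆ ⊥) (hstar : ∀ χ ∈ S₁, star χ ∈ S₁) (hirr : S₁ ⊆ H51.irr M)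
    (i : Dual W₁) {j : Dual W₂} (hj : j ≠ 1) {X Y : G → ℂ}
    (hXY : tauM M (bridge345 M W₁ W₂ ζ n δ i j) = X + Y) (hY : Y ∈ zs (S₁.image τ₁))
    (hYX : dot ⊤ Y X = 0) (hn : nrm ⊤ Y = (n : ℝ) ^ 2) :
    X = (δ : ℂ) • (eta ⊤ W₁ W₂ i j - eta ⊤ W₁ W₂ i 1) :=
  h.d10.bridge_coherence hc hsub hstar hirr i hj hXY hY hYX hn

/-- (10.9), Coq `FTtype345_Dade_bridge0`. -/
theorem type345_Dade_bridge0 (h : MaxP M W₁ U W₂) (hn2 : ¬ IsOfTypeII M) (h1 : ζ ∈ irr M)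
    (h2 : ζ ∈ seqInd ⁅M, M⁆ M ⁅M, M⁆ ⊥) (h3 : ζ 1 = (Nat.card W₁ : ℂ))
    (hlt : Nat.card W₁ < Nat.card W₂) :
    ∃ χ ∈ vchar (⊤ : Subgroup G), tauM M (muCol M W₁ W₂ 1 - ζ) = etaCol ⊤ W₁ W₂ 1 - χ ∧
      nrm ⊤ χ = 1 ∧ ∀ i j, dot ⊤ χ (eta ⊤ W₁ W₂ i j) = 0 :=
  (h.c10 hn2).bridge0 h1 h2 h3 hlt

end H51
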